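-- p-groups (p odd) with a cyclic subgroup of index p: structural core, built on S0126.
import Mathlib
import Cfsg.Agent.S0126

set_option autoImplicit false

namespace Cfsg.Agent.Lib.Helper95.CyclicMax

universe u

variable {R : Type u} [Group R]

/-- A subgroup of exponent `p` inside a cyclic subgroup has at most `p` elements. -/
lemma card_le_of_exp [Finite R] (p : ℕ) (hp : 0 < p) (C : Subgroup R) (hC : IsCyclic C)
    (S : Subgroup R) (hS : S ≤ C) (hexp : ∀ x ∈ S, x ^ p = 1) : Nat.card S ≤ p := by
  classical
  let _ : Fintype C := Fintype.ofFinite _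
  have h1 : Nat.card {c : C // c ^ p = 1} ≤ p := by
    rw [Nat.card_eq_fintype_card, Fintype.card_subtype]
    exact IsCyclic.card_pow_eq_one_le hp
  refine le_trans ?_ h1
  apply Nat.card_le_card_of_injective
    (fun x : S => (⟨⟨x.1, hS x.2⟩, Subtype.ext (by simpa using hexp x.1 x.2)⟩ :
      {c : C // c ^ p = 1}))
  intro x y hxy
  apply Subtype.ext
  have h2 := congrArg (fun t : {c : C // c ^ p = 1} => ((t : C) : R)) hxy
  exact h2

/-- If two elements generate the group and commute up to a central element `z`, then every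
commutator is a power of `z`. -/
lemma commutator_mem_zpowers' (a t z : R) (hgen : Subgroup.closure {a, t} = ⊤)
    (hzdef : t * a = z * (a * t)) (hz : z ∈ Subgroup.center R) (x y : R) :
    y⁻¹ * x⁻¹ * y * x ∈ Subgroup.zpowers z := by
  have hZle : Subgroup.zpowers z ≤ Subgroup.center R := by
    rw [Subgroup.zpowers_le]
    exact hz
  have hZn : (Subgroup.zpowers z).Normal := Cfsg.Agent.S0126.normal_of_le_center' _ hZle
  have hcomm : QuotientGroup.mk' (Subgroup.zpowers z) t * QuotientGroup.mk' (Subgroup.zpowers z) a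
      = QuotientGroup.mk' (Subgroup.zpowers z) a * QuotientGroup.mk' (Subgroup.zpowers z) t := by
    have hz1 : QuotientGroup.mk' (Subgroup.zpowers z) z = 1 :=
      (QuotientGroup.eq_one_iff z).mpr (Subgroup.mem_zpowers z)
    rw [← map_mul, ← map_mul, hzdef, map_mul, hz1, one_mul]
  have htop : Subgroup.closure {QuotientGroup.mk' (Subgroup.zpowers z) a,
      QuotientGroup.mk' (Subgroup.zpowers z) t} = ⊤ := by
    have h1 := congrArg (Subgroup.map (QuotientGroup.mk' (Subgroup.zpowers z))) hgen
    rw [MonoidHom.map_closure, Subgroup.map_top_of_surjective _ (QuotientGroup.mk'_surjective _),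
      Set.image_pair] at h1
    exact h1
  have hcenter : ∀ u : R ⧸ Subgroup.zpowers z, u ∈ Subgroup.center (R ⧸ Subgroup.zpowers z) := by
    have hA : QuotientGroup.mk' (Subgroup.zpowers z) a ∈ Subgroup.center (R ⧸ Subgroup.zpowers z) := by
      rw [Subgroup.mem_center_iff]
      intro g
      have hg : g ∈ Subgroup.centralizer ({QuotientGroup.mk' (Subgroup.zpowers z) a} : Set _) := by
        have hle : Subgroup.closure {QuotientGroup.mk' (Subgroup.zpowers z) a,
            QuotientGroup.mk' (Subgroup.zpowers z) t}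
            ≤ Subgroup.centralizer ({QuotientGroup.mk' (Subgroup.zpowers z) a} : Set _) := by
          rw [Subgroup.closure_le]
          intro w hw
          rcases hw with rfl | rfl
          · exact Subgroup.mem_centralizer_singleton_iff.mpr rfl
          · exact Subgroup.mem_centralizer_singleton_iff.mpr hcomm
        apply hle
        rw [htop]
        exact Subgroup.mem_top g
      exact Subgroup.mem_centralizer_singleton_iff.mp hg
    have hT : QuotientGroup.mk' (Subgroup.zpowers z) t ∈ Subgroup.center (R ⧸ Subgroup.zpowers z) := by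
      rw [Subgroup.mem_center_iff]
      intro g
      have hg : g ∈ Subgroup.centralizer ({QuotientGroup.mk' (Subgroup.zpowers z) t} : Set _) := by
        have hle : Subgroup.closure {QuotientGroup.mk' (Subgroup.zpowers z) a,
            QuotientGroup.mk' (Subgroup.zpowers z) t}
            ≤ Subgroup.centralizer ({QuotientGroup.mk' (Subgroup.zpowers z) t} : Set _) := by
          rw [Subgroup.closure_le]
          intro w hw
          rcases hw with rfl | rfl
          · exact Subgroup.mem_centralizer_singleton_iff.mpr hcomm.symm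
          · exact Subgroup.mem_centralizer_singleton_iff.mpr rfl
        apply hle
        rw [htop]
        exact Subgroup.mem_top g
      exact Subgroup.mem_centralizer_singleton_iff.mp hg
    intro u
    have hle : Subgroup.closure {QuotientGroup.mk' (Subgroup.zpowers z) a,
        QuotientGroup.mk' (Subgroup.zpowers z) t} ≤ Subgroup.center (R ⧸ Subgroup.zpowers z) := by
      rw [Subgroup.closure_le]
      intro w hw
      rcases hw with rfl | rfl
      · exact hA
      · exact hT
    apply hle
    rw [htop]
    exact Subgroup.mem_top u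
  rw [← QuotientGroup.eq_one_iff]
  change QuotientGroup.mk' (Subgroup.zpowers z) (y⁻¹ * x⁻¹ * y * x) = 1
  have h1 := Subgroup.mem_center_iff.mp (hcenter (QuotientGroup.mk' (Subgroup.zpowers z) x))
    (QuotientGroup.mk' (Subgroup.zpowers z) y)
  rw [map_mul, map_mul, map_mul, map_inv, map_inv, mul_assoc, h1]
  group

/-- If two elements generate the group and their commutator is central, then every commutator
is a power of it. -/
lemma commutator_mem_zpowers (a t : R) (hgen : Subgroup.closure {a, t} = ⊤)
    (hz : t * a * t⁻¹ * a⁻¹ ∈ Subgroup.center R) (x y : R) :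
    y⁻¹ * x⁻¹ * y * x ∈ Subgroup.zpowers (t * a * t⁻¹ * a⁻¹) :=
  commutator_mem_zpowers' a t _ hgen (by group) hz x y

/-- Structure of a non-cyclic `p`-group (`p` odd) with a cyclic subgroup of index `p`. -/
theorem core [Finite R] {p : ℕ} [Fact p.Prime] (hp : p ≠ 2) (hR : IsPGroup p R)
    (hnc : ¬ IsCyclic R) (C : Subgroup R) (hC : IsCyclic C) (hCi : C.index = p) :
    ∃ (a t : R) (N : Subgroup R), C = Subgroup.zpowers a ∧ C.Normal ∧ N.Normal ∧
      IsMulCommutative N ∧ Nat.card N = p ^ 2 ∧
      (∀ x ∈ N, x ^ p = 1) ∧ t ∈ N ∧ t ∉ C ∧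
      t * a * t⁻¹ * a⁻¹ ∈ Subgroup.center R ∧ t * a * t⁻¹ * a⁻¹ ∈ C ∧
      (t * a * t⁻¹ * a⁻¹) ^ p = 1 ∧ Subgroup.closure {a, t} = ⊤ := by
  have hpp : p.Prime := Fact.out
  -- C is normal
  have hCn : C.Normal := by
    apply Subgroup.normal_of_index_eq_minFac_card
    obtain ⟨k, hk⟩ := IsPGroup.iff_card.mp hR
    have hk0 : k ≠ 0 := by
      rintro rfl
      rw [pow_zero] at hk
      have h1 : C.index ∣ Nat.card R := Subgroup.index_dvd_card C
      rw [hCi, hk] at h1
      exact hpp.one_lt.ne' (Nat.dvd_one.mp h1)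
    rw [hCi, hk, hpp.pow_minFac hk0]
  obtain ⟨N, hNn, ⟨hNc, hNe⟩, hNcard⟩ := Cfsg.Agent.S0126.result hp hR hnc
  obtain ⟨g, hg⟩ := hC.exists_generator
  have hCmem : ∀ x ∈ C, ∃ i : ℤ, (g : R) ^ i = x := by
    intro x hx
    obtain ⟨i, hi⟩ := Subgroup.mem_zpowers_iff.mp (hg ⟨x, hx⟩)
    refine ⟨i, ?_⟩
    have := congrArg Subtype.val hi
    simpa using this
  have hCa : C = Subgroup.zpowers (g : R) := by
    apply le_antisymm
    · intro x hx
      rw [Subgroup.mem_zpowers_iff]
      exact hCmem x hx
    · rw [Subgroup.zpowers_le]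
      exact g.2
  have hNC : ¬ N ≤ C := by
    intro hle
    have h1 := card_le_of_exp p hpp.pos C hC N hle hNe
    rw [hNcard] at h1
    have h2 := hpp.two_le
    nlinarith
  obtain ⟨t, htN, htC⟩ := SetLike.not_le_iff_exists.mp hNC
  have haC : (g : R) ∈ C := g.2
  have hzC : t * (g : R) * t⁻¹ * (g : R)⁻¹ ∈ C :=
    mul_mem (hCn.conj_mem _ haC t) (inv_mem haC)
  have hzN : t * (g : R) * t⁻¹ * (g : R)⁻¹ ∈ N := by
    have h1 : t * (g : R) * t⁻¹ * (g : R)⁻¹ = t * ((g : R) * t⁻¹ * (g : R)⁻¹) := by group
    rw [h1]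
    exact mul_mem htN (hNn.conj_mem _ (inv_mem htN) _)
  have hgen : Subgroup.closure {(g : R), t} = ⊤ := by
    have hle : C ≤ Subgroup.closure {(g : R), t} := by
      intro x hx
      obtain ⟨i, rfl⟩ := hCmem x hx
      exact zpow_mem (Subgroup.subset_closure (Set.mem_insert _ _)) i
    have ht : t ∈ Subgroup.closure {(g : R), t} :=
      Subgroup.subset_closure (Set.mem_insert_of_mem _ rfl)
    have h1 := Subgroup.relIndex_mul_index hle
    rw [hCi] at h1
    have h2 : C.relIndex (Subgroup.closure {(g : R), t}) ≠ 1 := by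
      intro h
      exact htC (Subgroup.relIndex_eq_one.mp h ht)
    have h3 : C.relIndex (Subgroup.closure {(g : R), t}) ∣ p := Dvd.intro _ h1
    rcases (Nat.dvd_prime hpp).mp h3 with h4 | h4
    · exact absurd h4 h2
    · rw [h4] at h1
      have h5 : (Subgroup.closure {(g : R), t}).index = 1 := by
        have h6 : p * (Subgroup.closure {(g : R), t}).index = p * 1 := by rw [h1, mul_one]
        exact Nat.eq_of_mul_eq_mul_left hpp.pos h6
      exact Subgroup.index_eq_one.mp h5
  have hzcent : t * (g : R) * t⁻¹ * (g : R)⁻¹ ∈ Subgroup.center R := by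
    rw [Subgroup.mem_center_iff]
    intro w
    have hw : w ∈ Subgroup.centralizer ({t * (g : R) * t⁻¹ * (g : R)⁻¹} : Set R) := by
      have hle : Subgroup.closure {(g : R), t}
          ≤ Subgroup.centralizer ({t * (g : R) * t⁻¹ * (g : R)⁻¹} : Set R) := by
        rw [Subgroup.closure_le]
        intro v hv
        rcases hv with rfl | rfl
        · rw [SetLike.mem_coe, Subgroup.mem_centralizer_singleton_iff]
          obtain ⟨i, hi⟩ := hCmem _ hzC
          rw [← hi]
          exact ((Commute.refl (g : R)).zpow_right i).eq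
        · rw [SetLike.mem_coe, Subgroup.mem_centralizer_singleton_iff]
          have h1 := hNc.is_comm.comm ⟨v, htN⟩ ⟨_, hzN⟩
          exact congrArg Subtype.val h1
      apply hle
      rw [hgen]
      exact Subgroup.mem_top w
    exact Subgroup.mem_centralizer_singleton_iff.mp hw
  exact ⟨g, t, N, hCa, hCn, hNn, hNc, hNcard, hNe, htN, htC, hzcent, hzC, hNe _ hzN, hgen⟩

end Cfsg.Agent.Lib.Helper95.CyclicMax
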